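import Cfsg.Agent.Lib.Compute.Simple

/-!
# Simplicity of groups of permutations acting on an invariant subset

`simple_of_perm_A`, `simple_of_perm_B`: the two criteria of `Lib/Compute/Simple` stated for
`S : Subgroup (Equiv.Perm α)` and an invariant subset `Y` on which `S` is faithful and 2-transitive.
-/

set_option autoImplicit false

namespace Cfsg.Agent.Lib.Compute

open MulAction

variable {α : Type*}

/-- The set `Y` as a sub-action. -/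
def subAct (S : Subgroup (Equiv.Perm α)) (Y : Set α) (hY : ∀ σ ∈ S, ∀ a ∈ Y, σ a ∈ Y) :
    SubMulAction S α where
  carrier := Y
  smul_mem' := fun g a ha => hY g g.2 a ha

section
variable {S : Subgroup (Equiv.Perm α)} {Y : Set α} {hY : ∀ σ ∈ S, ∀ a ∈ Y, σ a ∈ Y}

theorem subAct_faithful (hf : ∀ σ ∈ S, (∀ a ∈ Y, σ a = a) → σ = 1) :
    FaithfulSMul S (subAct S Y hY) := by
  refine ⟨fun {g g'} h => ?_⟩
  have h1 : (g'⁻¹ * g : S) = 1 := by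
    apply Subtype.ext
    apply hf _ (g'⁻¹ * g : S).2
    intro a ha
    have h2 := h ⟨a, ha⟩
    have h3 : (g : Equiv.Perm α) a = (g' : Equiv.Perm α) a := congrArg Subtype.val h2
    show ((g' : Equiv.Perm α)⁻¹ * (g : Equiv.Perm α)) a = a
    rw [Equiv.Perm.mul_apply, h3]
    simp
  exact (inv_mul_eq_one.1 h1).symm

theorem subAct_two (h2 : ∀ a ∈ Y, ∀ b ∈ Y, ∀ c ∈ Y, ∀ d ∈ Y, a ≠ b → c ≠ d →
    ∃ σ ∈ S, σ a = c ∧ σ b = d) : IsMultiplyPretransitive S (subAct S Y hY) 2 := by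
  rw [is_two_pretransitive_iff]
  rintro ⟨a, ha⟩ ⟨b, hb⟩ ⟨c, hc⟩ ⟨d, hd⟩ hab hcd
  have hab' : a ≠ b := fun h => hab (Subtype.ext h)
  have hcd' : c ≠ d := fun h => hcd (Subtype.ext h)
  obtain ⟨σ, hσ, h1, h3⟩ := h2 a ha b hb c hc d hd hab' hcd'
  exact ⟨⟨σ, hσ⟩, Subtype.ext h1, Subtype.ext h3⟩

end

/-- First criterion. -/
theorem simple_of_perm_A [Finite α] {S : Subgroup (Equiv.Perm α)} {Y : Set α}
    (hY : ∀ σ ∈ S, ∀ a ∈ Y, σ a ∈ Y) (hf : ∀ σ ∈ S, (∀ a ∈ Y, σ a = a) → σ = 1)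
    (h2 : ∀ a ∈ Y, ∀ b ∈ Y, ∀ c ∈ Y, ∀ d ∈ Y, a ≠ b → c ≠ d → ∃ σ ∈ S, σ a = c ∧ σ b = d)
    {p : ℕ} (hp : p.Prime) (hpY : p ∣ Y.ncard) (hpS : ¬ p ^ 2 ∣ Nat.card S)
    {c : Equiv.Perm α} (hcS : c ∈ S) (hc : orderOf c = p)
    (hgen : ∀ N : Subgroup (Equiv.Perm α), c ∈ N → (∀ h ∈ S, ∀ x ∈ N, h * x * h⁻¹ ∈ N) → S ≤ N) :
    IsSimpleGroup S := by
  have hF : FaithfulSMul S (subAct S Y hY) := subAct_faithful hf
  have hT : IsMultiplyPretransitive S (subAct S Y hY) 2 := subAct_two h2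
  have hprim : IsPreprimitive S (subAct S Y hY) := isPreprimitive_of_is_two_pretransitive hT
  have hcard : Nat.card (subAct S Y hY) = Y.ncard := rfl
  have hne : Y.Nonempty := by
    rw [Set.nonempty_iff_ne_empty]
    intro hY0
    have : c = 1 := hf c hcS (by simp [hY0])
    rw [this, orderOf_one] at hc
    exact hp.one_lt.ne hc
  have : Nonempty (subAct S Y hY) := by
    obtain ⟨a, ha⟩ := hne
    exact ⟨⟨a, ha⟩⟩
  have hco : orderOf (⟨c, hcS⟩ : S) = p := by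
    rw [← Subgroup.orderOf_coe] at *
    exact hc
  have hnt : Nontrivial S := by
    refine ⟨⟨⟨c, hcS⟩, 1, fun h => ?_⟩⟩
    rw [h, orderOf_one] at hco
    exact hp.one_lt.ne hco
  refine isSimpleGroup_of_preprimitive_prime (X := subAct S Y hY) hp (by rw [hcard]; exact hpY) hpS hco ?_
  intro N hN hcN
  rw [eq_top_iff]
  intro g _
  have hle := hgen (N.map S.subtype) ⟨⟨c, hcS⟩, hcN, rfl⟩ (by
    rintro h hh x ⟨y, hy, rfl⟩
    refine ⟨⟨h, hh⟩ * y * ⟨h, hh⟩⁻¹, hN.conj_mem y hy ⟨h, hh⟩, rfl⟩)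
  obtain ⟨y, hy, hyg⟩ := hle g.2
  have : y = g := Subtype.ext hyg
  rwa [← this]

/-- Second criterion. -/
theorem simple_of_perm_B [Finite α] {S T : Subgroup (Equiv.Perm α)} {Y : Set α}
    (hY : ∀ σ ∈ S, ∀ a ∈ Y, σ a ∈ Y) (hf : ∀ σ ∈ S, (∀ a ∈ Y, σ a = a) → σ = 1)
    (h2 : ∀ a ∈ Y, ∀ b ∈ Y, ∀ c ∈ Y, ∀ d ∈ Y, a ≠ b → c ≠ d → ∃ σ ∈ S, σ a = c ∧ σ b = d)
    {x : α} (hx : x ∈ Y) (hT : ∀ σ, σ ∈ T ↔ σ ∈ S ∧ σ x = x) (hsimple : IsSimpleGroup T)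
    {p q : ℕ} (hp : p.Prime) (hq : q.Prime) (hpq : p ≠ q) (hpY : p ∣ Y.ncard) (hqY : q ∣ Y.ncard) :
    IsSimpleGroup S := by
  have hF : FaithfulSMul S (subAct S Y hY) := subAct_faithful hf
  have hTr : IsMultiplyPretransitive S (subAct S Y hY) 2 := subAct_two h2
  have hcard : Nat.card (subAct S Y hY) = Y.ncard := rfl
  -- the point stabiliser
  let e : stabilizer S (⟨x, hx⟩ : subAct S Y hY) ≃* T :=
    { toFun := fun g => ⟨g.1.1, (hT _).2 ⟨g.1.2, congrArg Subtype.val g.2⟩⟩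
      invFun := fun g => ⟨⟨g.1, ((hT _).1 g.2).1⟩, Subtype.ext ((hT _).1 g.2).2⟩
      left_inv := fun _ => rfl
      right_inv := fun _ => rfl
      map_mul' := fun _ _ => rfl }
  have hs : IsSimpleGroup (stabilizer S (⟨x, hx⟩ : subAct S Y hY)) := by
    haveI := hsimple
    exact e.isSimpleGroup
  have hnt : Nontrivial S := by
    have hT1 : Nontrivial T := hsimple.toNontrivial
    obtain ⟨a, b, hab⟩ := hT1
    refine ⟨⟨⟨a.1, ((hT _).1 a.2).1⟩, ⟨b.1, ((hT _).1 b.2).1⟩, fun h => hab ?_⟩⟩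
    have h' : (a : Equiv.Perm α) = b := congrArg (fun z : S => (z : Equiv.Perm α)) h
    exact Subtype.ext h'
  exact isSimpleGroup_of_two_transitive (X := subAct S Y hY) hTr ⟨x, hx⟩ hs hp hq hpq
    (by rw [hcard]; exact hpY) (by rw [hcard]; exact hqY)

end Cfsg.Agent.Lib.Compute
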